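import Cfsg.Agent.H2.SzSpec
import Cfsg.Agent.S3360
import Cfsg.Agent.H1.Cocycle

/-! S3776, job D: the pairing property from the field form. -/

set_option autoImplicit false

universe u

namespace H69.SzD

open H2.Sz

variable {P : Type u} [Group P] [Finite P] {Y : Subgroup (MulAut P)}

theorem comm (h : SzY Y) {x : P} (hx : x * x = 1) (y : P) : x * y = y * x := by
  by_cases hx1 : x = 1
  · simp [hx1]
  have : Nontrivial P := ⟨x, 1, hx1⟩
  have := h.two.center_nontrivial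
  obtain ⟨z, hz⟩ := exists_ne (1 : Subgroup.center P)
  obtain ⟨j, h1, h2⟩ := exists_invol_pow h.two (x := (z : P)) (fun e => hz (Subtype.ext e))
  rw [pow_two_pow_succ] at h2
  obtain ⟨a, -, rfl⟩ := h.trans _ _ h1 h2 hx1 hx
  obtain ⟨y, rfl⟩ := a.surjective y
  rw [← map_mul, ← map_mul, Subgroup.mem_center_iff.mp (Subgroup.pow_mem _ z.2 _)]

/-- The subgroup of elements of order at most two. -/
def T (h : SzY Y) : Subgroup P where
  carrier := {x | x * x = 1}
  one_mem' := mul_one 1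
  mul_mem' {x y} hx hy := by
    show x * y * (x * y) = 1
    rw [mul_assoc, ← mul_assoc y, ← comm h hx y, mul_assoc, show y * y = 1 from hy, mul_one]
    exact hx
  inv_mem' {x} hx := by
    show x⁻¹ * x⁻¹ = 1
    rw [← mul_inv_rev, show x * x = 1 from hx, inv_one]

theorem sq_map (a : MulAut P) {x : P} (hx : x * x = 1) : a x * a x = 1 := by
  rw [← map_mul, hx, map_one]

theorem coord (h : SzY Y) : ∃ (F : Type) (_ : Field F) (_ : Fintype F) (_ : CharP F 2) (ι : P → F)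
    (act : Y →* Equiv.Perm F), (∀ s t, s * s = 1 → t * t = 1 → ι (s * t) = ι s + ι t) ∧
    (∀ s t, s * s = 1 → t * t = 1 → ι s = ι t → s = t) ∧ (∀ x, ∃ t, t * t = 1 ∧ ι t = x) ∧
    (∀ (y : Y) t, t * t = 1 → act y (ι t) = ι (y.1 t)) ∧
    ∀ y, ∃ (a : F) (σ : F ≃+* F), ∀ x, act y x = a * σ x := by
  classical
  let _ : CommGroup (T h) := { mul_comm := fun a b => Subtype.ext (comm h a.2 b) }
  have h2 : ∀ v : Additive (T h), 2 • v = 0 := fun v => by
    rw [two_nsmul]; exact Subtype.ext (Additive.toMul v).2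
  let _ : Module (ZMod 2) (Additive (T h)) := AddCommGroup.zmodModule h2
  let r : Y → Additive (T h) →+ Additive (T h) := fun y => AddMonoidHom.mk'
    (fun v => Additive.ofMul ⟨y.1 (Additive.toMul v).1, sq_map _ (Additive.toMul v).2⟩)
    fun v w => Subtype.ext (map_mul y.1 _ _)
  let ρ : Y →* (Additive (T h) ≃ₗ[ZMod 2] Additive (T h)) := MonoidHom.mk' (fun y =>
    { (r y).toZModLinearMap 2 with
      invFun := r y⁻¹
      left_inv := fun v => Subtype.ext (MulAut.inv_apply_self _ y.1 _)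
      right_inv := fun v => Subtype.ext (MulAut.apply_inv_self _ y.1 _) }) fun a b => rfl
  obtain ⟨x, x', hx, x1, x2, -⟩ := h.many
  have : Nontrivial (Additive (T h)) := ⟨Additive.ofMul ⟨x, x2⟩, 0, fun e => x1 (congrArg Subtype.val e)⟩
  have := h.solv
  have : Finite ρ.range := Finite.of_surjective _ ρ.rangeRestrict_surjective
  rcases Cfsg.Agent.S3360.result 2 (Group.isSolvable_of_surjective ρ.rangeRestrict_surjective)
    ρ.range.subtype ρ.range.subtype_injective (fun v w hv hw => by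
      obtain ⟨a, ha, e⟩ := h.trans _ _ (fun e => hv (Subtype.ext e)) (Additive.toMul v).2
        (fun e => hw (Subtype.ext e)) (Additive.toMul w).2
      exact ⟨⟨_, ⟨a, ha⟩, rfl⟩, Subtype.ext e⟩) with ⟨F, _, _, e, he⟩ | hc
  · have c2 : CharP F 2 := (CharP.charP_iff_prime_eq_zero Nat.prime_two).2 (by
      have := congrArg e (h2 (e.symm 1))
      rwa [map_nsmul, e.apply_symm_apply, map_zero, nsmul_one] at this)
    let ι : P → F := fun t => if k : t * t = 1 then e (Additive.ofMul ⟨t, k⟩) else 0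
    have hι : ∀ t (k : t * t = 1), ι t = e (Additive.ofMul ⟨t, k⟩) := fun t k => dif_pos k
    refine ⟨F, _, inferInstance, c2, ι, MonoidHom.mk' (fun y =>
      (e.symm.toEquiv.trans (ρ y).toEquiv).trans e.toEquiv) fun a b => Equiv.ext fun x => by simp,
      fun s t hs ht => ?_, fun s t hs ht k => ?_, fun x => ?_, fun y t ht => ?_, fun y => ?_⟩
    · rw [hι s hs, hι t ht, hι _ ((T h).mul_mem hs ht), ← map_add]; rfl
    · rw [hι s hs, hι t ht] at k
      exact congrArg Subtype.val (e.injective k)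
    · exact ⟨_, (Additive.toMul (e.symm x)).2, (hι _ _).trans (e.apply_symm_apply x)⟩
    · rw [hι t ht, hι _ (sq_map _ ht)]
      exact congrArg (fun v => e (ρ y v)) (e.symm_apply_apply _)
    · obtain ⟨a, σ, k⟩ := he ⟨_, y, rfl⟩
      exact ⟨a, σ, fun x => (k (e.symm x)).trans (by rw [e.apply_symm_apply])⟩
  · obtain ⟨n, hn⟩ := IsPGroup.iff_card.1 (h.two.to_subgroup (T h))
    rw [show Nat.card (Additive (T h)) = 2 ^ n from hn] at hc
    rcases n with _ | n
    · simp at hc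
    · simp only [Set.mem_insert_iff, Set.mem_singleton_iff, pow_succ] at hc
      omega

theorem jobD (hB : JobB.{u}) : JobD.{u} := by
  classical
  intro P _ _ Y h X A C g φ iX iA iC AC irr g2 gm gs ge f2 fm fm' fz fA fe
  obtain ⟨F, _, _, _, ι, act, i1, i2, i3, i4, i5⟩ := coord h
  have i0 : ι 1 = 0 := by simpa using i1 1 1 (mul_one 1) (mul_one 1)
  have iz : ∀ {t}, t * t = 1 → ι t = 0 → t = 1 := fun ht e => i2 _ _ ht (mul_one 1) (e.trans i0.symm)
  have wd : ∀ a ∈ X, ∀ b ∈ X, ∀ u ∈ C, g a = g b → φ a u = φ b u := fun a ha b hb u hu e => by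
    have k := mul_mem (inv_mem ha) hb
    have e1 := gm a ha _ k
    have e2 := fm a ha _ k u hu
    rw [mul_inv_cancel_left] at e1 e2
    rw [e2, fz _ k u hu (left_eq_mul.1 (e.trans e1)), mul_one]
  have ex : ∀ x : F, ∃ a ∈ X, ι (g a) = x := fun x =>
    let ⟨t, ht, e⟩ := i3 x
    let ⟨a, ha, e'⟩ := gs t ht
    ⟨a, ha, e' ▸ e⟩
  choose s sX se using ex
  have wd' : ∀ a ∈ X, ∀ u ∈ C, φ (s (ι (g a))) u = φ a u := fun a ha u hu =>
    wd _ (sX _) a ha u hu (i2 _ _ (g2 _ (sX _)) (g2 a ha) (se _))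
  let B : P → F →+ F := fun u => if hu : u ∈ C then AddMonoidHom.mk' (fun x => ι (φ (s x) u))
    (fun x y => by
      rw [← i1 _ _ (f2 _ (sX x) u hu) (f2 _ (sX y) u hu), ← fm _ (sX x) _ (sX y) u hu,
        ← wd' _ (mul_mem (sX x) (sX y)) u hu, gm _ (sX x) _ (sX y),
        i1 _ _ (g2 _ (sX x)) (g2 _ (sX y)), se, se]) else 0
  have hB0 : ∀ u ∈ C, ∀ x, B u x = ι (φ (s x) u) := fun u hu x => by simp only [B, dif_pos hu]; rfl
  have hB1 : ∀ u ∈ C, ∀ a ∈ X, B u (ι (g a)) = ι (φ a u) := fun u hu a ha => by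
    rw [hB0 u hu, wd' a ha u hu]
  obtain ⟨x, x', hx, x1, x2, x1', x2'⟩ := h.many
  rcases hB F P Y Y.subtype act A C B (Fintype.two_lt_card_iff.2 ⟨0, ι x, ι x',
      fun e => x1 (iz x2 e.symm), fun e => x1' (iz x2' e.symm), fun e => hx (i2 _ _ x2 x2' e)⟩) i5
    (fun z z' hz hz' => by
      obtain ⟨t, ht, rfl⟩ := i3 z
      obtain ⟨t', ht', rfl⟩ := i3 z'
      obtain ⟨a, ha, rfl⟩ := h.trans t t' (fun e => hz (e ▸ i0)) ht (fun e => hz' (e ▸ i0)) ht'
      exact ⟨⟨a, ha⟩, i4 _ t ht⟩) AC (fun y w hw => iC y y.2 w hw)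
    (fun W hW => irr W fun a ha => hW ⟨a, ha⟩)
    (fun u hu w hw => AddMonoidHom.ext fun z => by
      rw [AddMonoidHom.add_apply, hB0 u hu, hB0 w hw, hB0 _ (mul_mem hu hw), fm' _ (sX z) u hu w hw,
        i1 _ _ (f2 _ (sX z) u hu) (f2 _ (sX z) w hw)])
    (fun u hu => AddMonoidHom.ext fun z => by rw [hB0 u (AC hu), fA _ (sX z) u hu, i0]; rfl)
    (fun y u hu z => by
      rw [hB0 u hu, i4 y _ (f2 _ (sX z) u hu), ← fe y y.2 _ (sX z) u hu,
        ← hB1 _ (iC y y.2 u hu) _ (iX y y.2 _ (sX z)), ge y y.2 _ (sX z), ← i4 y _ (g2 _ (sX z)), se]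
      rfl) with k | ⟨k1, k2⟩
  · exact Or.inl fun a ha u hu => iz (f2 a ha u hu) (by rw [← hB1 u hu a ha, k u hu]; rfl)
  by_cases hC : C ≤ A
  · exact Or.inl fun a ha u hu => fA a ha u (hC hu)
  refine Or.inr ⟨fun a ha u hu e => or_iff_not_imp_left.2 fun n => k1 u hu _
    (fun e => n (iz (g2 a ha) e)) (by rw [hB1 u hu a ha, e, i0]), fun u hu a ha b hb n1 n2 e1 e2 =>
    i2 _ _ (g2 a ha) (g2 b hb) (k2 (fun y hy => ?_) u hu _ _ (fun e => n1 (iz (g2 a ha) e))
      (fun e => n2 (iz (g2 b hb) e)) (by rw [hB1 u hu a ha, e1]) (by rw [hB1 u hu b hb, e2]))⟩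
  obtain ⟨w, hw, hw'⟩ := SetLike.not_le_iff_exists.1 hC
  obtain ⟨m, hm⟩ := IsPGroup.iff_card.1 (h.two.to_subgroup A)
  obtain ⟨n, hn, e⟩ := H1.exists_fixed_mem_coset (Y.subtype.comp (Subgroup.zpowers y).subtype) A
    (fun a z hz => iA _ a.1.2 z hz) (by
      rw [hm]
      exact Nat.Coprime.pow_right _ (Nat.coprime_two_right.2
        (h.odd.of_dvd_nat (Subgroup.card_subgroup_dvd_card _))))
    (Or.inl (by have := h.solv; infer_instance)) w (by
      let K : Subgroup Y :=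
        { carrier := {a | w⁻¹ * a.1 w ∈ A}
          one_mem' := by simp
          mul_mem' := fun {a b} ha hb => by
            have := A.mul_mem ha (iA _ a.2 _ hb)
            simpa [mul_assoc] using this
          inv_mem' := fun {a} ha => by
            have := A.inv_mem (iA _ a⁻¹.2 _ ha)
            simpa using this }
      exact fun a => (Subgroup.zpowers_le.2 (show y ∈ K from hy w hw)) a.2)
  obtain ⟨j, h1, h2⟩ := exists_invol_pow h.two (x := w * n) fun e => hw'
    (eq_inv_of_mul_eq_one_left e ▸ inv_mem hn)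
  rw [pow_two_pow_succ] at h2
  refine ⟨_, fun e => h1 (iz h2 e), (i4 y _ h2).trans (congrArg ι ?_)⟩
  rw [map_pow]
  exact congrArg (· ^ 2 ^ j) (e ⟨y, Subgroup.mem_zpowers y⟩)

end H69.SzD
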